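import Mathlib
import Cfsg.Prelude.Def_OddOrderLocal
import Cfsg.Agent.S1461

/-!
Bender–Glauberman Corollary 10.7(a) (helper9): a Sylow `p`-subgroup `P` of a minimal simple group of
odd order satisfies `P = [P, V] ≤ N_G(P)'` for every complement `V` of `P` in `N_G(P)`.
The chain statements used are taken as hypotheses: Lemma 10.1(a) (S1404) and Theorem 10.6 (S1410).

Reusable pieces:
* `commutator_eq_top_of_minSimple` : a minimal simple group of odd order is perfect;
* `sylow_le_commutator_of_sigma` : if `M` controls fusion of `p`-subgroups (10.1(a) for `M`) and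
  contains the Sylow `p`-subgroup `P` of `G`, then `P ≤ [M, M]` (focal subgroup theorem);
* `le_commutator_of_le_commutator_of_compl` : `N = P V`, `P` a normal `p`-subgroup, `P ∩ V = 1`,
  `P ≤ N'` implies `P ≤ [P, V]`.
-/

set_option autoImplicit false
set_option linter.unusedSectionVars false
set_option linter.style.haveILetI false

namespace Cfsg.Agent.Lib.Helper9.BG

open Cfsg
open scoped commutatorElement

/-- A minimal simple group of odd order is perfect. -/
theorem commutator_eq_top_of_minSimple {G : Type*} [Group G] (hG : Cfsg.IsMinSimpleOddOrder G) :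
    commutator G = ⊤ := by
  obtain ⟨-, hsimple, hnc, -⟩ := hG
  haveI := hsimple
  rcases (inferInstance : (commutator G).Normal).eq_bot_or_eq_top with h | h
  · exfalso
    apply hnc
    refine ⟨⟨fun a b => ?_⟩⟩
    have h1 : ⁅a, b⁆ ∈ commutator G := by
      rw [_root_.commutator_def]
      exact Subgroup.commutator_mem_commutator (Subgroup.mem_top a) (Subgroup.mem_top b)
    rw [h, Subgroup.mem_bot] at h1
    exact commutatorElement_eq_one_iff_mul_comm.mp h1
  · exact h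

/-- A `p`-subgroup of a minimal simple group of odd order is proper. -/
theorem isPGroup_ne_top' {G : Type*} [Group G] [Finite G] (hG : Cfsg.IsMinSimpleOddOrder G)
    {p : ℕ} [Fact p.Prime] {D : Subgroup G} (hD : IsPGroup p D) : D ≠ ⊤ := by
  rintro rfl
  obtain ⟨-, hsimple, hnc, -⟩ := hG
  haveI := hsimple
  have hnil : Group.IsNilpotent (⊤ : Subgroup G) := hD.isNilpotent
  have hs : Group.IsSolvable (⊤ : Subgroup G) := by
    have := hnil
    infer_instance
  have hsG : Group.IsSolvable G :=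
    Group.isSolvable_of_isSolvable_injective (f := (Subgroup.topEquiv (G := G)).symm.toMonoidHom)
      (Subgroup.topEquiv (G := G)).symm.injective
  exact hnc ⟨⟨IsSimpleGroup.comm_iff_isSolvable.mpr hsG⟩⟩

/-- Commutator of products of elementwise commuting pairs. -/
theorem commutatorElement_mul_mul_of_comm {Q : Type*} [Group Q] {a a' b b' : Q}
    (h1 : a * b = b * a) (h3 : a * b' = b' * a) (h4 : a' * b = b * a') (h2 : a' * b' = b' * a') :
    ⁅a * b, a' * b'⁆ = ⁅a, a'⁆ * ⁅b, b'⁆ := by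
  have c1 : Commute b a := h1.symm
  have c3 : Commute b' a := h3.symm
  have c4 : Commute b a' := h4.symm
  have c2 : Commute b' a' := h2.symm
  have hY1 : Commute (b * b' * b⁻¹) a⁻¹ :=
    ((c1.inv_right).mul_left (c3.inv_right)).mul_left (c1.inv_inv)
  have hY2 : Commute (b * b' * b⁻¹ * b'⁻¹) a'⁻¹ :=
    (((c4.inv_right).mul_left (c2.inv_right)).mul_left (c4.inv_inv)).mul_left (c2.inv_inv)
  simp only [commutatorElement_def]
  calc a * b * (a' * b') * (a * b)⁻¹ * (a' * b')⁻¹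
      = a * (b * a') * (b' * b⁻¹) * a⁻¹ * (b'⁻¹ * a'⁻¹) := by group
    _ = a * (a' * b) * (b' * b⁻¹) * a⁻¹ * (b'⁻¹ * a'⁻¹) := by rw [h4]
    _ = a * a' * ((b * b' * b⁻¹) * a⁻¹) * (b'⁻¹ * a'⁻¹) := by group
    _ = a * a' * (a⁻¹ * (b * b' * b⁻¹)) * (b'⁻¹ * a'⁻¹) := by rw [hY1.eq]
    _ = a * a' * a⁻¹ * ((b * b' * b⁻¹ * b'⁻¹) * a'⁻¹) := by group
    _ = a * a' * a⁻¹ * (a'⁻¹ * (b * b' * b⁻¹ * b'⁻¹)) := by rw [hY2.eq]
    _ = a * a' * a⁻¹ * a'⁻¹ * (b * b' * b⁻¹ * b'⁻¹) := by group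

/-- If `N = P V` with `P` a normal `p`-subgroup, `P ∩ V = 1` and `P ≤ N'`, then `P ≤ [P, V]`. -/
theorem le_commutator_of_le_commutator_of_compl {N : Type*} [Group N] [Finite N] {p : ℕ}
    [Fact p.Prime] (P V : Subgroup N) [hPn : P.Normal] (hP : IsPGroup p P) (hPV : P ⊓ V = ⊥)
    (hN : ∀ n : N, ∃ a ∈ P, ∃ b ∈ V, n = a * b) (h : P ≤ commutator N) : P ≤ ⁅P, V⁆ := by
  classical
  have hLP : ⁅P, V⁆ ≤ P := Subgroup.commutator_le_left P V
  have hVV : ⁅V, V⁆ ≤ V := by
    rw [Subgroup.commutator_le]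
    intro a ha b hb
    rw [commutatorElement_def]
    exact V.mul_mem (V.mul_mem (V.mul_mem ha hb) (V.inv_mem ha)) (V.inv_mem hb)
  have hLn : (⁅P, V⁆ : Subgroup N).Normal := by
    constructor
    intro l hl n
    obtain ⟨a, ha, b, hb, rfl⟩ := hN n
    have hb' : b * l * b⁻¹ ∈ ⁅P, V⁆ := by
      have h1 : (⁅P, V⁆ : Subgroup N).map (MulAut.conj b).toMonoidHom ≤ ⁅P, V⁆ := by
        rw [Subgroup.map_commutator]
        apply Subgroup.commutator_mono
        · rintro _ ⟨x, hx, rfl⟩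
          exact hPn.conj_mem x hx b
        · rintro _ ⟨x, hx, rfl⟩
          exact V.mul_mem (V.mul_mem hb hx) (V.inv_mem hb)
      exact h1 ⟨l, hl, rfl⟩
    have ha' : ∀ l ∈ (⁅P, V⁆ : Subgroup N), a * l * a⁻¹ ∈ ⁅P, V⁆ := by
      intro l hl
      have h1 : (⁅P, V⁆ : Subgroup N) ≤
          (⁅P, V⁆ : Subgroup N).comap (MulAut.conj a).toMonoidHom := by
        rw [Subgroup.commutator_le]
        intro x hx v hv
        rw [Subgroup.mem_comap]
        have e : (MulAut.conj a).toMonoidHom ⁅x, v⁆ = ⁅a * x, v⁆ * ⁅a, v⁆⁻¹ := by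
          simp only [MulEquiv.coe_toMonoidHom, MulAut.conj_apply, commutatorElement_def]
          group
        rw [e]
        exact mul_mem (Subgroup.commutator_mem_commutator (P.mul_mem ha hx) hv)
          (inv_mem (Subgroup.commutator_mem_commutator ha hv))
      exact h1 hl
    have h2 := ha' _ hb'
    have e : a * b * l * (a * b)⁻¹ = a * (b * l * b⁻¹) * a⁻¹ := by group
    rw [e]
    exact h2
  haveI := hLn
  obtain ⟨π, hker, hsurj⟩ : ∃ π : N →* N ⧸ (⁅P, V⁆ : Subgroup N),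
      (∀ x, π x = 1 ↔ x ∈ (⁅P, V⁆ : Subgroup N)) ∧ Function.Surjective π :=
    ⟨QuotientGroup.mk' _, fun x => QuotientGroup.eq_one_iff x, QuotientGroup.mk'_surjective _⟩
  have hcomm : ∀ a ∈ P, ∀ b ∈ V, π a * π b = π b * π a := by
    intro a ha b hb
    have h1 : ⁅a, b⁆ ∈ (⁅P, V⁆ : Subgroup N) := Subgroup.commutator_mem_commutator ha hb
    have h2 : π ⁅a, b⁆ = 1 := (hker _).mpr h1
    rw [map_commutatorElement] at h2
    exact commutatorElement_eq_one_iff_mul_comm.mp h2
  have hAn : ((⁅P, P⁆ : Subgroup N).map π).Normal :=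
    Subgroup.Normal.map (Subgroup.commutator_normal P P) π hsurj
  have hcomm_le : commutator N ≤
      ((⁅P, P⁆ : Subgroup N).map π ⊔ (⁅V, V⁆ : Subgroup N).map π).comap π := by
    rw [_root_.commutator_def, Subgroup.commutator_le]
    intro n _ n' _
    obtain ⟨a, ha, b, hb, rfl⟩ := hN n
    obtain ⟨a', ha', b', hb', rfl⟩ := hN n'
    rw [Subgroup.mem_comap, map_commutatorElement, map_mul, map_mul,
      commutatorElement_mul_mul_of_comm (hcomm a ha b hb) (hcomm a ha b' hb') (hcomm a' ha' b hb)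
        (hcomm a' ha' b' hb'), ← map_commutatorElement, ← map_commutatorElement]
    exact Subgroup.mul_mem_sup
      (Subgroup.mem_map_of_mem π (Subgroup.commutator_mem_commutator ha ha'))
      (Subgroup.mem_map_of_mem π (Subgroup.commutator_mem_commutator hb hb'))
  have key : ∀ x ∈ P, π x ∈ (⁅P, P⁆ : Subgroup N).map π := by
    intro x hx
    have hx1 : π x ∈ (⁅P, P⁆ : Subgroup N).map π ⊔ (⁅V, V⁆ : Subgroup N).map π :=
      hcomm_le (h hx)
    haveI := hAn
    obtain ⟨c, hc, d, hd, hcd⟩ := Subgroup.mem_sup_of_normal_left.mp hx1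
    obtain ⟨c₀, hc₀, rfl⟩ := hc
    obtain ⟨v, hv, rfl⟩ := hd
    have hc₀P : c₀ ∈ P := Subgroup.commutator_le_left P P hc₀
    have hvV : v ∈ V := hVV hv
    have h3 : (c₀ * v)⁻¹ * x ∈ (⁅P, V⁆ : Subgroup N) := by
      rw [← hker, map_mul, map_inv, map_mul, hcd, inv_mul_cancel]
    have h4 : (c₀ * v)⁻¹ * x ∈ P := hLP h3
    have hvP : v ∈ P := by
      have h5 : v⁻¹ = ((c₀ * v)⁻¹ * x) * (x⁻¹ * c₀) := by group
      have h6 : v⁻¹ ∈ P := by
        rw [h5]
        exact P.mul_mem h4 (P.mul_mem (P.inv_mem hx) hc₀P)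
      exact (Subgroup.inv_mem_iff P).mp h6
    have hv1 : v = 1 := by
      have hvPV : v ∈ P ⊓ V := ⟨hvP, hvV⟩
      rw [hPV] at hvPV
      exact Subgroup.mem_bot.mp hvPV
    rw [hv1, map_one, mul_one] at hcd
    rw [← hcd]
    exact Subgroup.mem_map_of_mem π hc₀
  have hPA : P.map π ≤ ⁅P.map π, P.map π⁆ := by
    rw [← Subgroup.map_commutator]
    rintro _ ⟨x, hx, rfl⟩
    exact key x hx
  have hbot : P.map π = ⊥ := by
    by_contra hne
    haveI : Nontrivial ↥(P.map π) := (Subgroup.nontrivial_iff_ne_bot _).mpr hne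
    haveI : Group.IsNilpotent ↥(P.map π) := (hP.map π).isNilpotent
    have h1 : commutator ↥(P.map π) < ⊤ := Group.IsSolvable.commutator_lt_top_of_nontrivial _
    apply h1.ne
    rw [eq_top_iff]
    intro y _
    have hy : (y : N ⧸ (⁅P, V⁆ : Subgroup N)) ∈ ⁅P.map π, P.map π⁆ := hPA y.2
    rw [← Subgroup.map_subtype_commutator] at hy
    obtain ⟨z, hz, hzy⟩ := hy
    have hzy' : z = y := Subtype.ext hzy
    rw [← hzy']
    exact hz
  intro x hx
  have hx1 : π x ∈ P.map π := Subgroup.mem_map_of_mem π hx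
  rw [hbot, Subgroup.mem_bot] at hx1
  exact (hker x).mp hx1

/-- Subgroup form of `le_commutator_of_le_commutator_of_compl`. -/
theorem le_commutator_of_isComplIn {G : Type*} [Group G] [Finite G] {p : ℕ} [Fact p.Prime]
    (P V N : Subgroup G) (hP : IsPGroup p P) (hPn : (P.subgroupOf N).Normal)
    (hV : Cfsg.IsComplIn P V N) (hle : P ≤ ⁅N, N⁆) : P ≤ ⁅P, V⁆ := by
  classical
  obtain ⟨hPN, hVN, hPV, hfac⟩ := hV
  haveI := hPn
  have hP0p : IsPGroup p (P.subgroupOf N) := hP.comap_subtype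
  have hPV0 : P.subgroupOf N ⊓ V.subgroupOf N = ⊥ := by
    rw [Subgroup.eq_bot_iff_forall]
    rintro x ⟨hx1, hx2⟩
    have hx3 : (x : G) ∈ P ⊓ V := ⟨hx1, hx2⟩
    rw [hPV, Subgroup.mem_bot] at hx3
    exact Subtype.ext hx3
  have hfac0 : ∀ n : N, ∃ a ∈ P.subgroupOf N, ∃ b ∈ V.subgroupOf N, n = a * b := by
    intro n
    obtain ⟨a, ha, b, hb, hab⟩ := hfac n.1 n.2
    exact ⟨⟨a, hPN ha⟩, ha, ⟨b, hVN hb⟩, hb, Subtype.ext hab⟩
  have hle0 : P.subgroupOf N ≤ commutator N := by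
    intro x hx
    have hx2 : (x : G) ∈ ⁅N, N⁆ := hle hx
    rw [← Subgroup.map_subtype_commutator] at hx2
    obtain ⟨y, hy, hyx⟩ := hx2
    have hyx' : y = x := Subtype.ext hyx
    rw [← hyx']
    exact hy
  have hmain := le_commutator_of_le_commutator_of_compl (P.subgroupOf N) (V.subgroupOf N)
    hP0p hPV0 hfac0 hle0
  intro x hx
  have hx1 : (⟨x, hPN hx⟩ : N) ∈ P.subgroupOf N := hx
  have hx2 := hmain hx1
  have hx3 : x ∈ (⁅P.subgroupOf N, V.subgroupOf N⁆).map N.subtype := ⟨_, hx2, rfl⟩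
  rw [Subgroup.map_commutator, Subgroup.map_subgroupOf_eq_of_le hPN,
    Subgroup.map_subgroupOf_eq_of_le hVN] at hx3
  exact hx3

/-- Focal subgroup argument: if `M` controls fusion of `p`-subgroups (BG 10.1(a) for `M`) and contains
the Sylow `p`-subgroup `P` of the perfect group `G`, then `P ≤ [M, M]`. -/
theorem sylow_le_commutator_of_sigma {G : Type*} [Group G] [Finite G]
    (hG : Cfsg.IsMinSimpleOddOrder G) (M : Subgroup G) (p : ℕ) [Fact p.Prime]
    (h1404 : ∀ X : Subgroup G, IsPGroup p X → X ≠ ⊥ → X ≤ M →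
      ∀ g : G, X.map (MulAut.conj g).toMonoidHom ≤ M →
        ∃ m ∈ M, ∃ c ∈ Subgroup.centralizer (X : Set G), g = m * c)
    (P : Sylow p G) (hPM : (P : Subgroup G) ≤ M) : (P : Subgroup G) ≤ ⁅M, M⁆ := by
  have hfoc := Subgroup.commutator_inf_eq_focalSubgroup P
  rw [commutator_eq_top_of_minSimple hG, top_inf_eq] at hfoc
  rw [hfoc, Subgroup.focalSubgroup_def, Subgroup.closure_le]
  rintro g ⟨hgP, x, hxP, u, rfl⟩
  by_cases hx1 : x = 1
  · subst hx1
    simp
  · have hX1 : Subgroup.zpowers x ≠ ⊥ := by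
      rw [Ne, Subgroup.zpowers_eq_bot]
      exact hx1
    have hXP : Subgroup.zpowers x ≤ (P : Subgroup G) := Subgroup.zpowers_le.mpr hxP
    have hXp : IsPGroup p (Subgroup.zpowers x) := P.2.to_le hXP
    have huxu : u * x * u⁻¹ ∈ (P : Subgroup G) := by
      have e : u * x * u⁻¹ = (x⁻¹ * ⁅x, u⁆)⁻¹ := by
        rw [commutatorElement_def]
        group
      rw [e]
      exact inv_mem (mul_mem (inv_mem hxP) hgP)
    have hmap : (Subgroup.zpowers x).map (MulAut.conj u).toMonoidHom ≤ M := by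
      rw [Subgroup.map_le_iff_le_comap, Subgroup.zpowers_le, Subgroup.mem_comap]
      have e : (MulAut.conj u).toMonoidHom x = u * x * u⁻¹ := rfl
      rw [e]
      exact hPM huxu
    obtain ⟨m, hm, c, hc, rfl⟩ := h1404 _ hXp hX1 (hXP.trans hPM) u hmap
    have hcx : x * c = c * x := (Subgroup.mem_centralizer_iff.mp hc) x (Subgroup.mem_zpowers x)
    have e : ⁅x, m * c⁆ = ⁅x, m⁆ := by
      rw [commutatorElement_def, commutatorElement_def]
      have hc2 : c * x⁻¹ * c⁻¹ = x⁻¹ := by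
        have hc3 : c * x⁻¹ = x⁻¹ * c := by
          calc c * x⁻¹ = x⁻¹ * (x * c) * x⁻¹ := by group
            _ = x⁻¹ * (c * x) * x⁻¹ := by rw [hcx]
            _ = x⁻¹ * c := by group
        rw [hc3]
        group
      calc x * (m * c) * x⁻¹ * (m * c)⁻¹ = x * m * (c * x⁻¹ * c⁻¹) * m⁻¹ := by group
        _ = x * m * x⁻¹ * m⁻¹ := by rw [hc2]
    rw [e]
    exact Subgroup.commutator_mem_commutator (hPM hxP) hm

/-- A nontrivial Sylow `p`-subgroup lies in the derived group of its normalizer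
(from 10.1(a) and 10.6). -/
theorem sylow_le_commutator_normalizer {G : Type*} [Group G] [Finite G]
    (hG : Cfsg.IsMinSimpleOddOrder G)
    (h1404 : ∀ (M : Subgroup G), IsCoatom M → ∀ (p : ℕ) [Fact p.Prime], p ∈ Cfsg.sigma M →
      ∀ X : Subgroup G, IsPGroup p X → X ≠ ⊥ → X ≤ M →
      ∀ g : G, X.map (MulAut.conj g).toMonoidHom ≤ M →
        ∃ m ∈ M, ∃ c ∈ Subgroup.centralizer (X : Set G), g = m * c)
    (h1410 : ∀ (p : ℕ) [Fact p.Prime] (H : Subgroup G), H ≠ ⊤ → Cfsg.PLengthLE p 1 H)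
    (p : ℕ) [hp : Fact p.Prime] (P : Sylow p G) (hP1 : (P : Subgroup G) ≠ ⊥) :
    (P : Subgroup G) ≤ ⁅Subgroup.normalizer ((P : Subgroup G) : Set G),
        Subgroup.normalizer ((P : Subgroup G) : Set G)⁆ := by
  classical
  have hPtop : (P : Subgroup G) ≠ ⊤ := isPGroup_ne_top' hG P.2
  have hNtop : Subgroup.normalizer ((P : Subgroup G) : Set G) ≠ ⊤ := by
    intro h
    haveI hs : IsSimpleGroup G := hG.2.1
    have hPn : (P : Subgroup G).Normal := Subgroup.normalizer_eq_top_iff.mp h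
    rcases hPn.eq_bot_or_eq_top with h1 | h1
    · exact hP1 h1
    · exact hPtop h1
  obtain ⟨M, hM, hNM⟩ := (eq_top_or_exists_le_coatom _).resolve_left hNtop
  have hPM : (P : Subgroup G) ≤ M := Subgroup.le_normalizer.trans hNM
  have hcardP : p ∣ Nat.card (P : Subgroup G) := by
    rcases P.2.card_eq_or_dvd with h | h
    · exact absurd (Subgroup.eq_bot_of_card_eq _ h) hP1
    · exact h
  have hmapS : ((P.subtype hPM : Sylow p M) : Subgroup M).map M.subtype = (P : Subgroup G) := by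
    rw [Sylow.coe_subtype]
    exact Subgroup.map_subgroupOf_eq_of_le hPM
  have hσ : p ∈ Cfsg.sigma M := by
    refine ⟨hp.out, hcardP.trans (Subgroup.card_dvd_of_le hPM), P.subtype hPM, ?_⟩
    rw [hmapS]
    exact hNM
  have hPM' : (P : Subgroup G) ≤ ⁅M, M⁆ :=
    sylow_le_commutator_of_sigma hG M p (h1404 M hM p hσ) P hPM
  haveI : Group.IsSolvable M := hG.2.2.2 M hM.1
  have hpl : Cfsg.PLengthLE p 1 M := h1410 p M hM.1
  have h61 := (Cfsg.Agent.S1461.result p hpl (P.subtype hPM)).1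
  have hSc : ((P.subtype hPM : Sylow p M) : Subgroup M) ≤ commutator M := by
    intro x hx
    have hxP : (x : G) ∈ (P : Subgroup G) := by
      rw [Sylow.coe_subtype, Subgroup.mem_subgroupOf] at hx
      exact hx
    have hx2 : (x : G) ∈ ⁅M, M⁆ := hPM' hxP
    rw [← Subgroup.map_subtype_commutator] at hx2
    obtain ⟨y, hy, hyx⟩ := hx2
    have hyx' : y = x := Subtype.ext hyx
    rw [← hyx']
    exact hy
  have h62 := h61 hSc
  intro x hx
  have hxS : (⟨x, hPM hx⟩ : M) ∈ ((P.subtype hPM : Sylow p M) : Subgroup M) := by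
    rw [Sylow.coe_subtype, Subgroup.mem_subgroupOf]
    exact hx
  have hx3 := h62 hxS
  have hx4 : x ∈ (⁅Subgroup.normalizer (((P.subtype hPM : Sylow p M) : Subgroup M) : Set M),
      Subgroup.normalizer (((P.subtype hPM : Sylow p M) : Subgroup M) : Set M)⁆).map M.subtype :=
    ⟨_, hx3, rfl⟩
  rw [Subgroup.map_commutator] at hx4
  have hnorm : (Subgroup.normalizer (((P.subtype hPM : Sylow p M) : Subgroup M) : Set M)).map
      M.subtype ≤ Subgroup.normalizer ((P : Subgroup G) : Set G) := by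
    rintro _ ⟨n, hn0, rfl⟩
    have hn : n ∈ Subgroup.normalizer (((P.subtype hPM : Sylow p M) : Subgroup M) : Set M) := hn0
    rw [Subgroup.mem_normalizer_iff] at hn ⊢
    intro h
    constructor
    · intro hh
      have h5 := (hn ⟨h, hPM hh⟩).mp (by rw [Sylow.coe_subtype, Subgroup.mem_subgroupOf]; exact hh)
      rw [Sylow.coe_subtype, Subgroup.mem_subgroupOf] at h5
      exact h5
    · intro hh
      have hhM : h ∈ M := by
        have h1 : (n : G) * h * (n : G)⁻¹ ∈ M := hPM hh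
        have e : h = (n : G)⁻¹ * ((n : G) * h * (n : G)⁻¹) * (n : G) := by group
        rw [e]
        exact M.mul_mem (M.mul_mem (M.inv_mem n.2) h1) n.2
      have h5 := (hn ⟨h, hhM⟩).mpr (by rw [Sylow.coe_subtype, Subgroup.mem_subgroupOf]; exact hh)
      rw [Sylow.coe_subtype, Subgroup.mem_subgroupOf] at h5
      exact h5
  exact Subgroup.commutator_mono hnorm hnorm hx4

/-- BG Corollary 10.7(a) from Lemma 10.1(a) and Theorem 10.6. -/
theorem s1411_core {G : Type*} [Group G] [Finite G] (hG : Cfsg.IsMinSimpleOddOrder G)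
    (h1404 : ∀ (M : Subgroup G), IsCoatom M → ∀ (p : ℕ) [Fact p.Prime], p ∈ Cfsg.sigma M →
      ∀ X : Subgroup G, IsPGroup p X → X ≠ ⊥ → X ≤ M →
      ∀ g : G, X.map (MulAut.conj g).toMonoidHom ≤ M →
        ∃ m ∈ M, ∃ c ∈ Subgroup.centralizer (X : Set G), g = m * c)
    (h1410 : ∀ (p : ℕ) [Fact p.Prime] (H : Subgroup G), H ≠ ⊤ → Cfsg.PLengthLE p 1 H)
    (p : ℕ) [Fact p.Prime] (P : Sylow p G) (V : Subgroup G)
    (hV : Cfsg.IsComplIn (P : Subgroup G) V (Subgroup.normalizer ((P : Subgroup G) : Set G))) :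
    (P : Subgroup G) = ⁅(P : Subgroup G), V⁆ ∧
      (P : Subgroup G) ≤ ⁅Subgroup.normalizer ((P : Subgroup G) : Set G),
        Subgroup.normalizer ((P : Subgroup G) : Set G)⁆ := by
  classical
  by_cases hP1 : (P : Subgroup G) = ⊥
  · rw [hP1]
    refine ⟨?_, bot_le⟩
    rw [Subgroup.commutator_bot_left]
  have hle := sylow_le_commutator_normalizer hG h1404 h1410 p P hP1
  refine ⟨le_antisymm ?_ ?_, hle⟩
  · exact le_commutator_of_isComplIn (P : Subgroup G) V _ P.2 Subgroup.normal_in_normalizer hV hle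
  · rw [Subgroup.commutator_le]
    intro a ha b hb
    have hb' : b ∈ Subgroup.normalizer ((P : Subgroup G) : Set G) := hV.2.1 hb
    rw [commutatorElement_def]
    have h1 : b * a⁻¹ * b⁻¹ ∈ (P : Subgroup G) :=
      (Subgroup.mem_normalizer_iff.mp hb' a⁻¹).mp (inv_mem ha)
    have e : a * b * a⁻¹ * b⁻¹ = a * (b * a⁻¹ * b⁻¹) := by group
    rw [e]
    exact mul_mem ha h1

end Cfsg.Agent.Lib.Helper9.BG
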